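import Mathlib
import Cfsg.Agent.BLK.CycMain
import Cfsg.Agent.BLK.BrauerFeit

/-! Cyclic defect groups: height zero. -/

set_option autoImplicit false
set_option maxHeartbeats 400000

open Cfsg CL.Blk

namespace CL.SP.Fin2

theorem height_of_cyclic {G : Type*} [Group G] [Finite G] {p : ℕ} {M : Ideal AlgInt}
    (hM : IsPModular p M) {B : Set (IrrCharacter G)} (hB : IsPBlock M B) {D : Subgroup G}
    (hD : IsDefectGroup p M B D) (hc : IsCyclic D) {χ : IrrCharacter G} (hχ : χ ∈ B) :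
    blockHeight p B χ.1 = 0 := by
  classical
  have := Fintype.ofFinite G
  have := Fact.mk hM.1
  by_cases h0 : D = ⊥
  · by_contra h
    have h1 := height_add_two_le hM hB hχ h
    have h2 := IsDefectGroup.card_eq_pow hM hB hD
    rw [h0, Subgroup.card_bot] at h2
    exact (Nat.one_lt_pow (by omega) hM.1.one_lt).ne h2
  obtain ⟨b, hr⟩ := CL.Cyc.exists_relPair_of_def hM hB hD
  obtain ⟨Z, hZ, hZc⟩ := CL.Cyc.exists_le_card_eq hM.1 hr.pair.pgroup (D := D) h0
  obtain ⟨c, hc⟩ := CL.Cyc.exists_setup_of_le hM hB hr hD hc hZ hZc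
  obtain ⟨θ₀, h⟩ := hc.exists_loc'
  obtain ⟨X, ψ, δ, ε, s⟩ := h.exists_str
  exact s.height_eq_zero h hχ

end CL.SP.Fin2
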